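import Mathlib
import Cfsg.Prelude.Def_JComponents
import Cfsg.Agent.Lib.Helper11.ThompsonOf
import Cfsg.Agent.Lib.Helper47.Subn
import Cfsg.Agent.Lib.Helper53.PGroups

set_option autoImplicit false

/-!
# J(T)-components: basic tools (helper71)

General lemmas used for the J(T)-component statements (K-S 12.3).
-/

namespace Cfsg.Agent.Lib.Helper71.JC

open Cfsg.Agent.Lib.Helper11 (maxElemAbIn)
open scoped commutatorElement

universe u
variable {G : Type u} [Group G]

theorem conj_comm_eq (k j j' : G) : j' * ⁅k, j⁆ * j'⁻¹ = ⁅k, j'⁆⁻¹ * ⁅k, j' * j⁆ := by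
  simp only [commutatorElement_def]; group

theorem conj_mem_comm {K J : Subgroup G} {j : G} (hj : j ∈ J) {w : G} (hw : w ∈ ⁅K, J⁆) :
    j * w * j⁻¹ ∈ ⁅K, J⁆ := by
  rw [Subgroup.commutator_def] at hw
  induction hw using Subgroup.closure_induction with
  | mem x hx =>
    obtain ⟨k, hk, j₂, hj₂, rfl⟩ := hx
    rw [conj_comm_eq]
    exact Subgroup.mul_mem _ (Subgroup.inv_mem _ (Subgroup.commutator_mem_commutator hk hj))
      (Subgroup.commutator_mem_commutator hk (J.mul_mem hj hj₂))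
  | one => simp
  | mul x y _ _ hx hy =>
    have : j * (x * y) * j⁻¹ = (j * x * j⁻¹) * (j * y * j⁻¹) := by group
    rw [this]; exact Subgroup.mul_mem _ hx hy
  | inv x _ hx =>
    have : j * x⁻¹ * j⁻¹ = (j * x * j⁻¹)⁻¹ := by group
    rw [this]; exact Subgroup.inv_mem _ hx

/-- If `[K, J] = K` then `J` normalizes `K`. -/
theorem le_normalizer_of_comm_eq {K J : Subgroup G} (h : ⁅K, J⁆ = K) :
    J ≤ Subgroup.normalizer (K : Set G) := by
  apply Cfsg.Agent.Lib.Helper53.le_normalizer_of_conj_mem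
  intro j hj w hw
  rw [← h] at hw ⊢
  exact conj_mem_comm hj hw

/-- Product decomposition of `K ⊔ J` when `J` normalizes `K`. -/
theorem mem_sup_of_le_normalizer {K J : Subgroup G} (h : J ≤ Subgroup.normalizer (K : Set G))
    {x : G} : x ∈ K ⊔ J ↔ ∃ k ∈ K, ∃ j ∈ J, x = k * j := by
  constructor
  · intro hx
    rw [Subgroup.sup_eq_closure] at hx
    induction hx using Subgroup.closure_induction with
    | mem y hy =>
      rcases hy with hy | hy
      · exact ⟨y, hy, 1, J.one_mem, by simp⟩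
      · exact ⟨1, K.one_mem, y, hy, by simp⟩
    | one => exact ⟨1, K.one_mem, 1, J.one_mem, by simp⟩
    | mul a b _ _ ha hb =>
      obtain ⟨k, hk, j, hj, rfl⟩ := ha
      obtain ⟨k', hk', j', hj', rfl⟩ := hb
      refine ⟨k * (j * k' * j⁻¹), K.mul_mem hk ?_, j * j', J.mul_mem hj hj', by group⟩
      exact (Subgroup.mem_normalizer_iff.mp (h hj) k').mp hk'
    | inv a _ ha =>
      obtain ⟨k, hk, j, hj, rfl⟩ := ha
      refine ⟨j⁻¹ * k⁻¹ * j⁻¹⁻¹, ?_, j⁻¹, J.inv_mem hj, by group⟩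
      exact (Subgroup.mem_normalizer_iff.mp (h (J.inv_mem hj)) k⁻¹).mp (K.inv_mem hk)
  · rintro ⟨k, hk, j, hj, rfl⟩
    exact Subgroup.mul_mem _ ((le_sup_left : K ≤ K ⊔ J) hk) ((le_sup_right : J ≤ K ⊔ J) hj)

/-- conjugation by a normalizing element -/
theorem conj_mem_of_mem_normalizer {W : Subgroup G} {x w : G}
    (hx : x ∈ Subgroup.normalizer (W : Set G)) (hw : w ∈ W) : x * w * x⁻¹ ∈ W :=
  (Subgroup.mem_normalizer_iff.mp hx w).mp hw

theorem conj_inv_mem_of_mem_normalizer {W : Subgroup G} {x w : G}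
    (hx : x ∈ Subgroup.normalizer (W : Set G)) (hw : w ∈ W) : x⁻¹ * w * x ∈ W := by
  have h := (Subgroup.mem_normalizer_iff.mp (Subgroup.inv_mem _ hx) w).mp hw
  simpa using h

/-- An involution of `S` centralizing a largest elementary abelian subgroup of `S` lies in it. -/
theorem mem_of_centralizes_max [Finite G] {S A : Subgroup G} (hA : A ∈ maxElemAbIn 2 S) {x : G}
    (hxS : x ∈ S) (hx2 : x ^ 2 = 1) (hxc : ∀ a ∈ A, a * x = x * a) : x ∈ A := by
  have hB := Cfsg.Agent.Lib.Helper11.elemAb_closure_insert A hA.2.1 x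
    (by rw [Subgroup.mem_centralizer_iff]; exact hxc) hx2
  have hle : A ≤ Subgroup.closure ((A : Set G) ∪ {x}) :=
    fun y hy => Subgroup.subset_closure (Or.inl hy)
  have hBS : Subgroup.closure ((A : Set G) ∪ {x}) ≤ S := by
    rw [Subgroup.closure_le]
    rintro y (hy | hy)
    · exact hA.1 hy
    · rw [Set.mem_singleton_iff] at hy; subst hy; exact hxS
  have hcard := hA.2.2 _ hBS hB
  have := Subgroup.eq_of_le_of_card_ge hle hcard
  rw [this]; exact Subgroup.subset_closure (Or.inr rfl)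

/-- An elementary abelian subgroup of `S` at least as large as a largest one is a largest one. -/
theorem mem_max_of_card_le {S A B : Subgroup G} (hA : A ∈ maxElemAbIn 2 S) (hBS : B ≤ S)
    (hB : Cfsg.IsElementaryAbelian 2 B) (hc : Nat.card A ≤ Nat.card B) : B ∈ maxElemAbIn 2 S :=
  ⟨hBS, hB, fun C hCS hC => (hA.2.2 C hCS hC).trans hc⟩

/-- The join of two elementwise commuting elementary abelian subgroups is elementary abelian. -/
theorem elemAb_sup {B W : Subgroup G} (hB : Cfsg.IsElementaryAbelian 2 B)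
    (hW : Cfsg.IsElementaryAbelian 2 W) (hc : ∀ b ∈ B, ∀ w ∈ W, b * w = w * b) :
    Cfsg.IsElementaryAbelian 2 (B ⊔ W) := by
  rw [Subgroup.sup_eq_closure]
  have hcomm : ∀ y ∈ ((B : Set G) ∪ W), ∀ z ∈ ((B : Set G) ∪ W), y * z = z * y := by
    intro y hy z hz
    have h1 := hB.1
    have h2 := hW.1
    rcases hy with hy | hy <;> rcases hz with hz | hz
    · exact setLike_mul_comm hy hz
    · exact hc y hy z hz
    · exact (hc z hz y hy).symm
    · exact setLike_mul_comm hy hz
  have hBW : IsMulCommutative (Subgroup.closure ((B : Set G) ∪ W)) :=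
    Subgroup.isMulCommutative_closure hcomm
  refine ⟨hBW, ?_⟩
  intro a ha
  induction ha using Subgroup.closure_induction with
  | mem y hy =>
    rcases hy with hy | hy
    · exact hB.2 y hy
    · exact hW.2 y hy
  | one => simp
  | mul y z hy hz hy' hz' =>
    have hc' : Commute y z := setLike_mul_comm hy hz
    rw [hc'.mul_pow, hy', hz', one_mul]
  | inv y hy hy' => rw [inv_pow, hy', inv_one]

/-- The image of an elementary abelian subgroup under conjugation. -/
theorem elemAb_conj {A : Subgroup G} (hA : Cfsg.IsElementaryAbelian 2 A) (x : G) :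
    Cfsg.IsElementaryAbelian 2 (A.map (MulAut.conj x).toMonoidHom) :=
  Cfsg.Agent.Lib.Helper11.elemAb_map _ hA

theorem card_conj (A : Subgroup G) (x : G) :
    Nat.card (A.map (MulAut.conj x).toMonoidHom) = Nat.card A :=
  Subgroup.card_map_of_injective (MulAut.conj x).injective

theorem mem_conj_iff {A : Subgroup G} {x y : G} :
    y ∈ A.map (MulAut.conj x).toMonoidHom ↔ x⁻¹ * y * x ∈ A := by
  constructor
  · rintro ⟨a, ha, rfl⟩
    have : x⁻¹ * ((MulAut.conj x).toMonoidHom a) * x = a := by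
      simp [MulAut.conj_apply]; group
    rw [this]; exact ha
  · intro h
    refine ⟨x⁻¹ * y * x, h, ?_⟩
    simp [MulAut.conj_apply]; group

/-- Quotient of order 3: structure of `K` over `R`. -/
theorem q3 {R K : Subgroup G} (hRK : R ≤ K) (hKR : K ≤ Subgroup.normalizer (R : Set G))
    (hidx : R.relIndex K = 3) {d : G} (hd : d ∈ K) (hdR : d ∉ R) :
    d ^ 3 ∈ R ∧ ∀ k ∈ K, ∃ i : ℕ, ∃ r ∈ R, k = d ^ i * r := by
  have hn : (R.subgroupOf K).Normal :=
    (Subgroup.normal_subgroupOf_iff_le_normalizer hRK).mpr hKR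
  have hcard : Nat.card (↥K ⧸ R.subgroupOf K) = 3 := hidx
  have : Fact (Nat.Prime 3) := ⟨by norm_num⟩
  have hq1 : (QuotientGroup.mk' (R.subgroupOf K)) ⟨d, hd⟩ ≠ 1 := by
    intro h; apply hdR
    have h2 := (QuotientGroup.eq_one_iff _).mp h
    exact Subgroup.mem_subgroupOf.mp h2
  constructor
  · have h3 : ((QuotientGroup.mk' (R.subgroupOf K)) ⟨d, hd⟩) ^ 3 = 1 := by
      have h4 := pow_card_eq_one' (G := ↥K ⧸ R.subgroupOf K)
        (x := (QuotientGroup.mk' (R.subgroupOf K)) ⟨d, hd⟩)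
      rwa [hcard] at h4
    rw [← map_pow] at h3
    have h2 := (QuotientGroup.eq_one_iff _).mp h3
    have h5 := Subgroup.mem_subgroupOf.mp h2
    simpa using h5
  · intro k hk
    have hmem := mem_powers_of_prime_card (G := ↥K ⧸ R.subgroupOf K) hcard hq1
      (g' := (QuotientGroup.mk' (R.subgroupOf K)) ⟨k, hk⟩)
    obtain ⟨i, hi⟩ := hmem
    refine ⟨i, (d ^ i)⁻¹ * k, ?_, by group⟩
    have h6 : (QuotientGroup.mk' (R.subgroupOf K)) ((⟨d, hd⟩ : ↥K) ^ i)⁻¹ *
        (QuotientGroup.mk' (R.subgroupOf K)) ⟨k, hk⟩ = 1 := by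
      rw [map_inv, map_pow]
      have hi' : (QuotientGroup.mk' (R.subgroupOf K)) ⟨d, hd⟩ ^ i =
          (QuotientGroup.mk' (R.subgroupOf K)) ⟨k, hk⟩ := hi
      rw [hi']; simp
    rw [← map_mul] at h6
    have h2 := (QuotientGroup.eq_one_iff _).mp h6
    have h5 := Subgroup.mem_subgroupOf.mp h2
    simpa using h5

/-- coprime powers -/
theorem mem_of_pow_mem_coprime {R : Subgroup G} {k : G} {a b : ℕ} (hab : Nat.Coprime a b)
    (ha : k ^ a ∈ R) (hb : k ^ b ∈ R) : k ∈ R := by
  have h := Nat.gcd_eq_gcd_ab a b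
  rw [hab] at h
  have h2 : k = (k ^ a) ^ (Nat.gcdA a b) * (k ^ b) ^ (Nat.gcdB a b) := by
    rw [← zpow_natCast k a, ← zpow_natCast k b, ← zpow_mul, ← zpow_mul, ← zpow_add, ← h]
    simp
  rw [h2]
  exact R.mul_mem (R.zpow_mem ha _) (R.zpow_mem hb _)

end Cfsg.Agent.Lib.Helper71.JC
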