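import Mathlib
import Cfsg.Agent.Lib.Helper71.JC.JCBasic

set_option autoImplicit false

/-!
# Involutions acting on a four-group (helper71)
-/

namespace Cfsg.Agent.Lib.Helper71.JC

universe u
variable {G : Type u} [Group G]

theorem four_enum {W : Subgroup G} (hW4 : Nat.card W = 4) {x y z : G} (hx : x ∈ W) (hy : y ∈ W)
    (hz : z ∈ W) (h1 : x ≠ 1) (h2 : y ≠ 1) (h3 : z ≠ 1) (h12 : x ≠ y) (h13 : x ≠ z)
    (h23 : y ≠ z) : ∀ w ∈ W, w = 1 ∨ w = x ∨ w = y ∨ w = z := by
  classical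
  have : Finite W := Nat.finite_of_card_ne_zero (by omega)
  let _ : Fintype W := Fintype.ofFinite W
  intro w hw
  let T : Finset W := {1, ⟨x, hx⟩, ⟨y, hy⟩, ⟨z, hz⟩}
  have hT : T.card = 4 := by
    have e1 : (⟨y, hy⟩ : W) ∉ ({⟨z, hz⟩} : Finset W) := by
      simp only [Finset.mem_singleton, Subtype.mk.injEq]; exact h23
    have e2 : (⟨x, hx⟩ : W) ∉ ({⟨y, hy⟩, ⟨z, hz⟩} : Finset W) := by
      simp only [Finset.mem_insert, Finset.mem_singleton, Subtype.mk.injEq]
      rintro (h | h)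
      · exact h12 h
      · exact h13 h
    have e3 : (1 : W) ∉ ({⟨x, hx⟩, ⟨y, hy⟩, ⟨z, hz⟩} : Finset W) := by
      simp only [Finset.mem_insert, Finset.mem_singleton]
      rintro (h | h | h)
      · exact h1 (congrArg Subtype.val h).symm
      · exact h2 (congrArg Subtype.val h).symm
      · exact h3 (congrArg Subtype.val h).symm
    show (insert (1 : W) (insert (⟨x, hx⟩ : W) (insert (⟨y, hy⟩ : W) ({⟨z, hz⟩} : Finset W)))).card = 4
    rw [Finset.card_insert_of_notMem e3, Finset.card_insert_of_notMem e2,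
      Finset.card_insert_of_notMem e1, Finset.card_singleton]
  have hT' : T = Finset.univ :=
    Finset.eq_univ_of_card T (by rw [hT, ← Nat.card_eq_fintype_card, hW4])
  have hmem : (⟨w, hw⟩ : W) ∈ T := by rw [hT']; exact Finset.mem_univ _
  simp only [T, Finset.mem_insert, Finset.mem_singleton] at hmem
  rcases hmem with h | h | h | h
  · left; exact congrArg Subtype.val h
  · right; left; exact congrArg Subtype.val h
  · right; right; left; exact congrArg Subtype.val h
  · right; right; right; exact congrArg Subtype.val h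

theorem inv_eq_self_of_sq {x : G} (h : x * x = 1) : x⁻¹ = x :=
  inv_eq_of_mul_eq_one_left h

/-- Structure of a non-central involution acting on a four-group. -/
theorem invol_struct {W : Subgroup G} (hW4 : Nat.card W = 4) (hW2 : ∀ w ∈ W, w * w = 1)
    (hWc : ∀ w ∈ W, ∀ w' ∈ W, w * w' = w' * w) {a : G}
    (ha : a ∈ Subgroup.normalizer (W : Set G))
    (ha2 : a * a = 1) (hna : ¬ ∀ w ∈ W, a * w * a⁻¹ = w) :
    ∃ u ∈ W, u ≠ 1 ∧ a * u * a⁻¹ = u ∧ (∀ w ∈ W, a * w * a⁻¹ = w → w = 1 ∨ w = u) ∧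
      (∀ w ∈ W, a * w * a⁻¹ ≠ w → a * w * a⁻¹ = w * u) := by
  push_neg at hna
  obtain ⟨v, hv, hva⟩ := hna
  have hv' : a * v * a⁻¹ ∈ W := conj_mem_of_mem_normalizer ha hv
  have hainv : a⁻¹ = a := inv_eq_self_of_sq ha2
  have haa : a * (a * v * a⁻¹) * a⁻¹ = v := by
    rw [hainv]
    calc a * (a * v * a) * a = (a * a) * v * (a * a) := by group
      _ = v := by rw [ha2]; group
  have hvv := hW2 v hv
  have hv'v' := hW2 _ hv'
  have hv1 : v ≠ 1 := by
    intro h; apply hva; rw [h]; group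
  have hv'1 : a * v * a⁻¹ ≠ 1 := by
    intro h
    apply hv1
    have : v = a⁻¹ * (a * v * a⁻¹) * a := by group
    rw [this, h]; group
  have hu1 : v * (a * v * a⁻¹) ≠ 1 := by
    intro h
    apply hva
    have h2 : a * v * a⁻¹ = v⁻¹ := (inv_eq_of_mul_eq_one_right h).symm
    rw [h2, inv_eq_self_of_sq hvv]
  have huv : v * (a * v * a⁻¹) ≠ v := by
    intro h
    apply hv'1
    have : v * (a * v * a⁻¹) = v * 1 := by rw [h, mul_one]
    exact mul_left_cancel this
  have huv' : v * (a * v * a⁻¹) ≠ a * v * a⁻¹ := by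
    intro h
    apply hv1
    have : v * (a * v * a⁻¹) = 1 * (a * v * a⁻¹) := by rw [h, one_mul]
    exact mul_right_cancel this
  have henum := four_enum hW4 (W.mul_mem hv hv') hv hv' hu1 hv1 hv'1 huv huv' (Ne.symm hva)
  have hufix : a * (v * (a * v * a⁻¹)) * a⁻¹ = v * (a * v * a⁻¹) := by
    have : a * (v * (a * v * a⁻¹)) * a⁻¹ = (a * v * a⁻¹) * (a * (a * v * a⁻¹) * a⁻¹) := by group
    rw [this, haa]
    exact hWc _ hv' _ hv
  refine ⟨v * (a * v * a⁻¹), W.mul_mem hv hv', hu1, hufix, ?_, ?_⟩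
  · intro w hw hfix
    rcases henum w hw with h | h | h | h
    · left; exact h
    · right; exact h
    · exfalso; rw [h] at hfix; exact hva hfix
    · exfalso; rw [h, haa] at hfix; exact hva hfix.symm
  · intro w hw hnfix
    rcases henum w hw with h | h | h | h
    · exfalso; apply hnfix; rw [h]; group
    · exfalso; apply hnfix; rw [h]; exact hufix
    · rw [h, ← mul_assoc, hvv, one_mul]
    · rw [h, haa]
      have : a * v * a⁻¹ * (v * (a * v * a⁻¹)) = v * ((a * v * a⁻¹) * (a * v * a⁻¹)) := by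
        rw [← mul_assoc, hWc _ hv' _ hv, mul_assoc]
      rw [this, hv'v', mul_one]

/-- Two commuting involutions acting nontrivially on a four-group act in the same way. -/
theorem two_invol {W : Subgroup G} (hW4 : Nat.card W = 4) (hW2 : ∀ w ∈ W, w * w = 1)
    (hWc : ∀ w ∈ W, ∀ w' ∈ W, w * w' = w' * w) {a a' : G}
    (ha : a ∈ Subgroup.normalizer (W : Set G)) (ha' : a' ∈ Subgroup.normalizer (W : Set G))
    (ha2 : a * a = 1) (ha'2 : a' * a' = 1) (hcomm : a * a' = a' * a)
    (hna : ¬ ∀ w ∈ W, a * w * a⁻¹ = w) (hna' : ¬ ∀ w ∈ W, a' * w * a'⁻¹ = w) :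
    ∀ w ∈ W, (a * a') * w * (a * a')⁻¹ = w := by
  obtain ⟨u, hu, hu1, hufix, hfix, hnfix⟩ := invol_struct hW4 hW2 hWc ha ha2 hna
  obtain ⟨u', hu', hu'1, hu'fix, hfix', hnfix'⟩ := invol_struct hW4 hW2 hWc ha' ha'2 hna'
  -- a' u a'⁻¹ is fixed by a
  have h1 : a * (a' * u * a'⁻¹) * a⁻¹ = a' * u * a'⁻¹ := by
    have : a * (a' * u * a'⁻¹) * a⁻¹ = (a * a') * u * (a * a')⁻¹ := by group
    rw [this, hcomm]
    have : a' * a * u * (a' * a)⁻¹ = a' * (a * u * a⁻¹) * a'⁻¹ := by group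
    rw [this, hufix]
  have h2 : a' * u * a'⁻¹ = u := by
    rcases hfix _ (conj_mem_of_mem_normalizer ha' hu) h1 with h | h
    · exfalso; apply hu1
      have : u = a'⁻¹ * (a' * u * a'⁻¹) * a' := by group
      rw [this, h]; group
    · exact h
  have h3 : u = u' := by
    rcases hfix' u hu h2 with h | h
    · exact absurd h hu1
    · exact h
  subst h3
  intro w hw
  have hexp : (a * a') * w * (a * a')⁻¹ = a * (a' * w * a'⁻¹) * a⁻¹ := by group
  rw [hexp]
  by_cases hw1 : a * w * a⁻¹ = w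
  · rcases hfix w hw hw1 with h | h
    · rw [h]; group
    · rw [h, h2, hufix]
  · have hw2 : a' * w * a'⁻¹ ≠ w := by
      intro h
      rcases hfix' w hw h with h' | h'
      · apply hw1; rw [h']; group
      · apply hw1; rw [h']; exact hufix
    rw [hnfix' w hw hw2]
    have : a * (w * u) * a⁻¹ = (a * w * a⁻¹) * (a * u * a⁻¹) := by group
    rw [this, hnfix w hw hw1, hufix, mul_assoc, hW2 u hu, mul_one]

end Cfsg.Agent.Lib.Helper71.JC
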