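import Mathlib
import Cfsg.Agent.Lib.Helper71.JC.JCBasic
import Cfsg.Agent.Lib.Helper71.JC.JCFour

set_option autoImplicit false

/-!
# The abstract configuration of a J(T)-component (helper71)

`K` a J-component for `J`, `R = O₂(K)`, `W = W_K` a four-group, `S = R J` a Sylow 2-subgroup of
`K J` with `J(S) = J`.
-/

namespace Cfsg.Agent.Lib.Helper71.JC

open Cfsg.Agent.Lib.Helper11 (maxElemAbIn)
open scoped commutatorElement

universe u
variable {G : Type u} [Group G]

/-- The abstract configuration of a `J`-component. -/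
structure Cfg (K J R W S : Subgroup G) : Prop where
  hJK : J ≤ Subgroup.normalizer (K : Set G)
  hRK : R ≤ K
  hKR : K ≤ Subgroup.normalizer (R : Set G)
  hJR : J ≤ Subgroup.normalizer (R : Set G)
  hR2 : IsPGroup 2 R
  hJ2 : IsPGroup 2 J
  hidx : R.relIndex K = 3
  hcomm : ⁅K, J⁆ = K
  hWR : W ≤ R
  hWZ : ∀ w ∈ W, ∀ r ∈ R, w * r = r * w
  hKW : K ≤ Subgroup.normalizer (W : Set G)
  hJW : J ≤ Subgroup.normalizer (W : Set G)
  hW4 : Nat.card W = 4
  hW2 : ∀ w ∈ W, w * w = 1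
  hfp : ∀ d ∈ K, d ∉ R → ∀ w ∈ W, d * w * d⁻¹ = w → w = 1
  hS : S = R ⊔ J
  hJS : Cfsg.thompsonSubgroupOf 2 S = J

theorem conj_eq_iff_comm {x w : G} : x * w * x⁻¹ = w ↔ w * x = x * w := by
  constructor
  · intro h
    calc w * x = (x * w * x⁻¹) * x := by rw [h]
      _ = x * w := by group
  · intro h
    calc x * w * x⁻¹ = (w * x) * x⁻¹ := by rw [h]
      _ = w := by group

namespace Cfg

variable {K J R W S : Subgroup G} (c : Cfg K J R W S)
include c

theorem mem_S {x : G} : x ∈ S ↔ ∃ r ∈ R, ∃ j ∈ J, x = r * j := by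
  rw [c.hS]; exact mem_sup_of_le_normalizer c.hJR

theorem mem_X {x : G} : x ∈ K ⊔ J ↔ ∃ k ∈ K, ∃ j ∈ J, x = k * j :=
  mem_sup_of_le_normalizer c.hJK

theorem R_le_S : R ≤ S := by rw [c.hS]; exact le_sup_left

theorem J_le_S : J ≤ S := by rw [c.hS]; exact le_sup_right

theorem W_le_S : W ≤ S := c.hWR.trans c.R_le_S

theorem S_le_X : S ≤ K ⊔ J := by rw [c.hS]; exact sup_le_sup_right c.hRK J

theorem S2 : IsPGroup 2 S := by
  rw [c.hS]; exact IsPGroup.to_sup_of_normal_left' c.hR2 c.hJ2 c.hJR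

theorem X_le_NW : K ⊔ J ≤ Subgroup.normalizer (W : Set G) := sup_le c.hKW c.hJW

theorem X_le_NK : K ⊔ J ≤ Subgroup.normalizer (K : Set G) := sup_le Subgroup.le_normalizer c.hJK

theorem X_le_NR : K ⊔ J ≤ Subgroup.normalizer (R : Set G) := sup_le c.hKR c.hJR

theorem S_le_NW : S ≤ Subgroup.normalizer (W : Set G) := c.S_le_X.trans c.X_le_NW

theorem exists_d : ∃ d ∈ K, d ∉ R := by
  by_contra h
  have h' : K ≤ R := fun k hk => by
    by_contra hk'
    exact h ⟨k, hk, hk'⟩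
  have h1 : R.relIndex K = 1 := Subgroup.relIndex_eq_one.mpr h'
  rw [c.hidx] at h1; omega

theorem Wcomm : ∀ w ∈ W, ∀ w' ∈ W, w * w' = w' * w :=
  fun w hw w' hw' => c.hWZ w hw w' (c.hWR hw')

theorem W_elemAb : Cfsg.IsElementaryAbelian 2 W :=
  ⟨IsMulCommutative.of_setLike_mul_comm (fun a ha b hb => c.Wcomm a ha b hb),
    fun w hw => by rw [pow_two]; exact c.hW2 w hw⟩

theorem W_ne_bot : W ≠ ⊥ := by
  intro h
  have h1 := c.hW4
  rw [h, Subgroup.card_bot] at h1
  omega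

/-- `C_K(W) = R`. -/
theorem mem_R_of_centralizes {k : G} (hk : k ∈ K) (hc : ∀ w ∈ W, k * w * k⁻¹ = w) : k ∈ R := by
  by_contra hkR
  apply c.W_ne_bot
  rw [Subgroup.eq_bot_iff_forall]
  intro w hw
  exact c.hfp k hk hkR w hw (hc w hw)

variable [Finite G]

theorem exists_central : ∃ w ∈ W, w ≠ 1 ∧ ∀ g ∈ S, g * w = w * g := by
  have : Fact (Nat.Prime 2) := ⟨Nat.prime_two⟩
  exact Cfsg.Agent.Lib.Helper53.exists_mem_center_of_normal_subgroup c.S2 c.W_le_S c.S_le_NW
    c.W_ne_bot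

/-- `C_X(W) ≤ S`. -/
theorem mem_S_of_centralizes {x : G} (hx : x ∈ K ⊔ J) (hc : ∀ w ∈ W, x * w * x⁻¹ = w) :
    x ∈ S := by
  obtain ⟨k, hk, j, hj, rfl⟩ := c.mem_X.mp hx
  obtain ⟨w₀, hw₀, hw₀1, hw₀c⟩ := c.exists_central
  have hkR : k ∈ R := by
    by_contra hkR
    apply hw₀1
    apply c.hfp k hk hkR w₀ hw₀
    have h1 := conj_eq_iff_comm.mp (hc w₀ hw₀)
    have h2 := hw₀c j (c.J_le_S hj)
    rw [conj_eq_iff_comm]
    have h3 : w₀ * k * j = k * w₀ * j := by
      calc w₀ * k * j = w₀ * (k * j) := by group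
        _ = k * j * w₀ := h1
        _ = k * (j * w₀) := by group
        _ = k * (w₀ * j) := by rw [h2]
        _ = k * w₀ * j := by group
    exact mul_right_cancel h3
  exact c.mem_S.mpr ⟨k, hkR, j, hj, rfl⟩

theorem J_not_centralizes : ¬ (J ≤ Subgroup.centralizer (W : Set G)) := by
  intro h
  have hK : K ≤ Subgroup.centralizer (W : Set G) := by
    rw [← c.hcomm, Subgroup.commutator_le]
    intro k hk j hj
    have h1 : k * j * k⁻¹ ∈ Subgroup.centralizer (W : Set G) := by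
      rw [Subgroup.mem_centralizer_iff]; intro w hw
      have hw' : k⁻¹ * w * k ∈ W := conj_inv_mem_of_mem_normalizer (c.hKW hk) hw
      have h2 := (Subgroup.mem_centralizer_iff.mp (h hj)) _ hw'
      calc w * (k * j * k⁻¹) = k * ((k⁻¹ * w * k) * j) * k⁻¹ := by group
        _ = k * (j * (k⁻¹ * w * k)) * k⁻¹ := by rw [h2]
        _ = k * j * k⁻¹ * w := by group
    rw [commutatorElement_def]
    exact Subgroup.mul_mem _ h1 (Subgroup.inv_mem _ (h hj))
  obtain ⟨d, hd, hdR⟩ := c.exists_d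
  exact hdR (c.mem_R_of_centralizes hd
    (fun w hw => conj_eq_iff_comm.mpr (Subgroup.mem_centralizer_iff.mp (hK hd) w hw)))

theorem J_eq_sSup : J = sSup (maxElemAbIn 2 S) := by
  rw [← c.hJS, Cfsg.Agent.Lib.Helper11.thompsonSubgroupOf_eq]

theorem max_le_J {A : Subgroup G} (hA : A ∈ maxElemAbIn 2 S) : A ≤ J := by
  rw [c.J_eq_sSup]; exact le_sSup hA

theorem exists_max_not_centralizes :
    ∃ A ∈ maxElemAbIn 2 S, ¬ A ≤ Subgroup.centralizer (W : Set G) := by
  by_contra h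
  apply c.J_not_centralizes
  rw [c.J_eq_sSup, sSup_le_iff]
  intro A hA
  by_contra hA'
  exact h ⟨A, hA, hA'⟩

theorem max_comm {A : Subgroup G} (hA : A ∈ maxElemAbIn 2 S) {a b : G} (ha : a ∈ A)
    (hb : b ∈ A) : a * b = b * a := by
  have := hA.2.1.1
  exact setLike_mul_comm ha hb

theorem max_sq {A : Subgroup G} (hA : A ∈ maxElemAbIn 2 S) {a : G} (ha : a ∈ A) :
    a * a = 1 := by
  have := hA.2.1.2 a ha
  rwa [pow_two] at this

/-- Thompson replacement: `C_A(W) W` is again a largest elementary abelian subgroup. -/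
theorem repl {A : Subgroup G} (hA : A ∈ maxElemAbIn 2 S)
    (hAW : ¬ A ≤ Subgroup.centralizer (W : Set G)) :
    (A ⊓ Subgroup.centralizer (W : Set G)) ⊔ W ∈ maxElemAbIn 2 S := by
  have hAN : A ≤ Subgroup.normalizer (W : Set G) := hA.1.trans c.S_le_NW
  have hB : Cfsg.IsElementaryAbelian 2 (A ⊓ Subgroup.centralizer (W : Set G)) :=
    Cfsg.Agent.Lib.Helper11.elemAb_mono inf_le_left hA.2.1
  have hBW : ∀ b ∈ A ⊓ Subgroup.centralizer (W : Set G), ∀ w ∈ W, b * w = w * b := by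
    intro b hb w hw
    exact ((Subgroup.mem_centralizer_iff.mp hb.2) w hw).symm
  have hel := elemAb_sup hB c.W_elemAb hBW
  have hle : (A ⊓ Subgroup.centralizer (W : Set G)) ⊔ W ≤ S :=
    sup_le (inf_le_left.trans hA.1) c.W_le_S
  refine mem_max_of_card_le hA hle hel ?_
  -- pick a₀ ∈ A not centralizing W
  obtain ⟨a₀, ha₀, ha₀W⟩ := SetLike.not_le_iff_exists.mp hAW
  have ha₀' : ¬ ∀ w ∈ W, a₀ * w * a₀⁻¹ = w := by
    intro h
    apply ha₀W
    rw [Subgroup.mem_centralizer_iff]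
    intro w hw
    exact conj_eq_iff_comm.mp (h w hw)
  -- index two
  have hidx : (A ⊓ Subgroup.centralizer (W : Set G)).relIndex A = 2 := by
    rw [Subgroup.relIndex_eq_two_iff]
    refine ⟨a₀, ha₀, fun b hb => ?_⟩
    by_cases hbB : b ∈ A ⊓ Subgroup.centralizer (W : Set G)
    · refine Or.inr ⟨hbB, fun h => ?_⟩
      apply ha₀W
      have : a₀ = b⁻¹ * (b * a₀) := by group
      rw [this]
      exact Subgroup.mul_mem _ (Subgroup.inv_mem _ hbB.2) h.2
    · refine Or.inl ⟨?_, hbB⟩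
      have hb' : ¬ ∀ w ∈ W, b * w * b⁻¹ = w := by
        intro h
        apply hbB
        refine Subgroup.mem_inf.mpr ⟨hb, ?_⟩
        rw [Subgroup.mem_centralizer_iff]
        intro w hw
        exact conj_eq_iff_comm.mp (h w hw)
      have h2 := two_invol c.hW4 c.hW2 c.Wcomm (hAN hb) (hAN ha₀) (c.max_sq hA hb)
        (c.max_sq hA ha₀) (c.max_comm hA hb ha₀) hb' ha₀'
      refine Subgroup.mem_inf.mpr ⟨A.mul_mem hb ha₀, ?_⟩
      rw [Subgroup.mem_centralizer_iff]
      intro w hw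
      exact conj_eq_iff_comm.mp (h2 w hw)
  have hcardA : Nat.card (A ⊓ Subgroup.centralizer (W : Set G) : Subgroup G) * 2 = Nat.card A := by
    have h1 := Subgroup.relIndex_mul_relIndex (⊥ : Subgroup G)
      (A ⊓ Subgroup.centralizer (W : Set G)) A bot_le inf_le_left
    rw [Subgroup.relIndex_bot_left, Subgroup.relIndex_bot_left, hidx] at h1
    exact h1
  -- a vector of W outside A
  have ha₀'' := ha₀'
  push_neg at ha₀''
  obtain ⟨v, hv, hva⟩ := ha₀''
  have hvA : v ∉ A := by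
    intro hvA
    apply hva
    rw [conj_eq_iff_comm]
    exact c.max_comm hA hvA ha₀
  have hlt : (A ⊓ Subgroup.centralizer (W : Set G)) <
      (A ⊓ Subgroup.centralizer (W : Set G)) ⊔ W := by
    refine lt_of_le_of_ne le_sup_left ?_
    intro h
    apply hvA
    have : v ∈ (A ⊓ Subgroup.centralizer (W : Set G)) ⊔ W := (le_sup_right : W ≤ _) hv
    rw [← h] at this
    exact this.1
  have hdvd := Subgroup.card_dvd_of_le (le_sup_left :
    (A ⊓ Subgroup.centralizer (W : Set G)) ≤ (A ⊓ Subgroup.centralizer (W : Set G)) ⊔ W)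
  obtain ⟨m, hm⟩ := hdvd
  have hpos : 0 < Nat.card (A ⊓ Subgroup.centralizer (W : Set G) : Subgroup G) := Nat.card_pos
  have hm1 : m ≠ 1 := by
    intro h1
    rw [h1, mul_one] at hm
    have := Subgroup.eq_of_le_of_card_ge (le_sup_left :
      (A ⊓ Subgroup.centralizer (W : Set G)) ≤ (A ⊓ Subgroup.centralizer (W : Set G)) ⊔ W)
      (le_of_eq hm)
    exact (ne_of_lt hlt) this
  have hm0 : m ≠ 0 := by
    intro h0
    rw [h0, mul_zero] at hm
    have : 0 < Nat.card ((A ⊓ Subgroup.centralizer (W : Set G)) ⊔ W : Subgroup G) := Nat.card_pos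
    omega
  have hm2 : 2 ≤ m := by omega
  rw [hm, ← hcardA]
  exact Nat.mul_le_mul_left _ hm2

theorem repl_le_centralizer (A : Subgroup G) :
    (A ⊓ Subgroup.centralizer (W : Set G)) ⊔ W ≤ Subgroup.centralizer (W : Set G) := by
  refine sup_le inf_le_right ?_
  intro w hw
  rw [Subgroup.mem_centralizer_iff]
  intro w' hw'
  exact c.Wcomm w' hw' w hw

end Cfg

end Cfsg.Agent.Lib.Helper71.JC
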