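import Mathlib
import Cfsg.Agent.Lib.Helper71.JC.JCCfg

set_option autoImplicit false

/-!
# `Ω₁(Z(J))` in the configuration of a J(T)-component (helper71)
-/

namespace Cfsg.Agent.Lib.Helper71.JC

open Cfsg.Agent.Lib.Helper11 (maxElemAbIn)
open scoped commutatorElement

universe u
variable {G : Type u} [Group G]

theorem mem_omegaCenterOf_iff {J : Subgroup G} {z : G} :
    z ∈ Cfsg.omegaCenterOf J ↔ z ∈ J ∧ (∀ j ∈ J, j * z = z * j) ∧ z ^ 2 = 1 := by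
  unfold Cfsg.omegaCenterOf Cfsg.omegaOne
  constructor
  · intro hz
    induction hz using Subgroup.closure_induction with
    | mem x hx =>
      obtain ⟨hx1, hx2⟩ := hx
      obtain ⟨hxJ, hxc⟩ := Subgroup.mem_inf.mp hx1
      exact ⟨hxJ, fun j hj => Subgroup.mem_centralizer_iff.mp hxc j hj, hx2⟩
    | one => exact ⟨J.one_mem, fun j _ => by simp, by simp⟩
    | mul x y _ _ hx hy =>
      obtain ⟨hxJ, hxc, hx2⟩ := hx
      obtain ⟨hyJ, hyc, hy2⟩ := hy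
      refine ⟨J.mul_mem hxJ hyJ, fun j hj => ?_, ?_⟩
      · rw [← mul_assoc, hxc j hj, mul_assoc, hyc j hj, mul_assoc]
      · have hxy : Commute x y := hyc x hxJ
        rw [hxy.mul_pow, hx2, hy2, one_mul]
    | inv x _ hx =>
      obtain ⟨hxJ, hxc, hx2⟩ := hx
      refine ⟨J.inv_mem hxJ, fun j hj => ?_, by rw [inv_pow, hx2, inv_one]⟩
      have h := hxc j hj
      calc j * x⁻¹ = x⁻¹ * (x * j) * x⁻¹ := by group
        _ = x⁻¹ * (j * x) * x⁻¹ := by rw [h]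
        _ = x⁻¹ * j := by group
  · rintro ⟨hzJ, hzc, hz2⟩
    apply Subgroup.subset_closure
    exact ⟨Subgroup.mem_inf.mpr ⟨hzJ, Subgroup.mem_centralizer_iff.mpr hzc⟩, hz2⟩

/-- the subgroup of the `h ∈ N(W)` with `[e, h] ∈ W` for all `e ∈ E`. -/
def commW (W : Subgroup G) (E : Set G) : Subgroup G where
  carrier := {h | h ∈ Subgroup.normalizer (W : Set G) ∧ ∀ e ∈ E, e * h * e⁻¹ * h⁻¹ ∈ W}
  mul_mem' := by
    rintro x y ⟨hx, hxe⟩ ⟨hy, hye⟩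
    refine ⟨Subgroup.mul_mem _ hx hy, fun e he => ?_⟩
    have : e * (x * y) * e⁻¹ * (x * y)⁻¹ =
        (e * x * e⁻¹ * x⁻¹) * (x * (e * y * e⁻¹ * y⁻¹) * x⁻¹) := by group
    rw [this]
    exact W.mul_mem (hxe e he) (conj_mem_of_mem_normalizer hx (hye e he))
  one_mem' := ⟨Subgroup.one_mem _, fun e _ => by simp⟩
  inv_mem' := by
    rintro x ⟨hx, hxe⟩
    refine ⟨Subgroup.inv_mem _ hx, fun e he => ?_⟩
    have : e * x⁻¹ * e⁻¹ * x⁻¹⁻¹ = x⁻¹ * (e * x * e⁻¹ * x⁻¹)⁻¹ * x := by group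
    rw [this]
    exact conj_inv_mem_of_mem_normalizer hx (W.inv_mem (hxe e he))

theorem mem_commW {W : Subgroup G} {E : Set G} {h : G} :
    h ∈ commW W E ↔ h ∈ Subgroup.normalizer (W : Set G) ∧ ∀ e ∈ E, e * h * e⁻¹ * h⁻¹ ∈ W :=
  Iff.rfl

/-- the conjugates of the elements of `Ω₁(Z(J))` under `K J`. -/
def conjZ (K J : Subgroup G) : Set G :=
  {e | ∃ x ∈ K ⊔ J, ∃ z ∈ Cfsg.omegaCenterOf J, e = x * z * x⁻¹}

namespace Cfg

variable {K J R W S : Subgroup G} (c : Cfg K J R W S) [Finite G]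
include c

theorem Z_mem_max {z : G} (hz : z ∈ Cfsg.omegaCenterOf J) {A : Subgroup G}
    (hA : A ∈ maxElemAbIn 2 S) : z ∈ A := by
  obtain ⟨hzJ, hzc, hz2⟩ := mem_omegaCenterOf_iff.mp hz
  exact mem_of_centralizes_max hA (c.J_le_S hzJ) hz2 (fun a ha => hzc a (c.max_le_J hA ha))

theorem mem_Z_of {x : G} (hxS : x ∈ S) (hx2 : x ^ 2 = 1) (hxc : ∀ j ∈ J, j * x = x * j) :
    x ∈ Cfsg.omegaCenterOf J := by
  obtain ⟨A₀, hA₀⟩ := Cfsg.Agent.Lib.Helper11.maxElemAbIn_nonempty 2 S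
  have hxA : x ∈ A₀ :=
    mem_of_centralizes_max hA₀ hxS hx2 (fun a ha => hxc a (c.max_le_J hA₀ ha))
  exact mem_omegaCenterOf_iff.mpr ⟨c.max_le_J hA₀ hxA, hxc, hx2⟩

theorem S_le_NJ : S ≤ Subgroup.normalizer (J : Set G) := by
  apply Cfsg.Agent.Lib.Helper53.le_normalizer_of_conj_mem
  intro s hs w hw
  have hmap : S.map (MulAut.conj s).toMonoidHom = S := by
    ext y; rw [mem_conj_iff]
    constructor
    · intro h
      have : y = s * (s⁻¹ * y * s) * s⁻¹ := by group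
      rw [this]; exact S.mul_mem (S.mul_mem hs h) (S.inv_mem hs)
    · intro h; exact S.mul_mem (S.mul_mem (S.inv_mem hs) h) hs
  have h1 := Cfsg.Agent.Lib.Helper11.thompsonSubgroupOf_map 2 (MulAut.conj s).toMonoidHom
    (MulAut.conj s).injective S
  rw [hmap, c.hJS] at h1
  have h2 : s * w * s⁻¹ ∈ J.map (MulAut.conj s).toMonoidHom :=
    ⟨w, hw, by simp [MulAut.conj_apply]⟩
  rw [← h1] at h2; exact h2

theorem conj_mem_Z {s : G} (hs : s ∈ S) {z : G} (hz : z ∈ Cfsg.omegaCenterOf J) :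
    s * z * s⁻¹ ∈ Cfsg.omegaCenterOf J := by
  obtain ⟨hzJ, hzc, hz2⟩ := mem_omegaCenterOf_iff.mp hz
  refine mem_omegaCenterOf_iff.mpr
    ⟨conj_mem_of_mem_normalizer (c.S_le_NJ hs) hzJ, fun j hj => ?_, ?_⟩
  · have hj' : s⁻¹ * j * s ∈ J := conj_inv_mem_of_mem_normalizer (c.S_le_NJ hs) hj
    have h := hzc _ hj'
    calc j * (s * z * s⁻¹) = s * ((s⁻¹ * j * s) * z) * s⁻¹ := by group
      _ = s * (z * (s⁻¹ * j * s)) * s⁻¹ := by rw [h]
      _ = s * z * s⁻¹ * j := by group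
  · have h : (s * z * s⁻¹) ^ 2 = s * z ^ 2 * s⁻¹ := by rw [pow_two, pow_two]; group
    rw [h, hz2]; group

theorem conj_max {A : Subgroup G} (hA : A ∈ maxElemAbIn 2 S)
    (hAW : A ≤ Subgroup.centralizer (W : Set G)) {x : G} (hx : x ∈ K ⊔ J) :
    A.map (MulAut.conj x).toMonoidHom ∈ maxElemAbIn 2 S := by
  refine mem_max_of_card_le hA ?_ (elemAb_conj hA.2.1 x) (le_of_eq (card_conj A x).symm)
  intro y hy
  rw [mem_conj_iff] at hy
  apply c.mem_S_of_centralizes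
  · have : y = x * (x⁻¹ * y * x) * x⁻¹ := by group
    rw [this]
    exact Subgroup.mul_mem _ (Subgroup.mul_mem _ hx (c.S_le_X (hA.1 hy))) (Subgroup.inv_mem _ hx)
  · intro w hw
    have hw' : x⁻¹ * w * x ∈ W := conj_inv_mem_of_mem_normalizer (c.X_le_NW hx) hw
    have h1 := Subgroup.mem_centralizer_iff.mp (hAW hy) _ hw'
    rw [conj_eq_iff_comm]
    calc w * y = x * ((x⁻¹ * w * x) * (x⁻¹ * y * x)) * x⁻¹ := by group
      _ = x * ((x⁻¹ * y * x) * (x⁻¹ * w * x)) * x⁻¹ := by rw [h1]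
      _ = y * w := by group

theorem conj_Z_comm {A : Subgroup G} (hA : A ∈ maxElemAbIn 2 S)
    (hAW : A ≤ Subgroup.centralizer (W : Set G)) {x : G} (hx : x ∈ K ⊔ J) {z : G}
    (hz : z ∈ Cfsg.omegaCenterOf J) {a : G} (ha : a ∈ A) :
    a * (x * z * x⁻¹) = (x * z * x⁻¹) * a := by
  have hmax := c.conj_max hA hAW (Subgroup.inv_mem _ hx)
  have hmem : x⁻¹ * a * x ∈ A.map (MulAut.conj x⁻¹).toMonoidHom :=
    ⟨a, ha, by simp [MulAut.conj_apply]⟩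
  have hJ := c.max_le_J hmax hmem
  obtain ⟨hzJ, hzc, hz2⟩ := mem_omegaCenterOf_iff.mp hz
  have h := hzc _ hJ
  calc a * (x * z * x⁻¹) = x * ((x⁻¹ * a * x) * z) * x⁻¹ := by group
    _ = x * (z * (x⁻¹ * a * x)) * x⁻¹ := by rw [h]
    _ = x * z * x⁻¹ * a := by group

theorem conj_Z_mem {A' : Subgroup G} (hA' : A' ∈ maxElemAbIn 2 S)
    (hA'W : A' ≤ Subgroup.centralizer (W : Set G)) {x : G} (hx : x ∈ K ⊔ J) {z : G}
    (hz : z ∈ Cfsg.omegaCenterOf J) : x * z * x⁻¹ ∈ A' := by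
  have hmax := c.conj_max hA' hA'W (Subgroup.inv_mem _ hx)
  have hzm := c.Z_mem_max hz hmax
  rw [mem_conj_iff] at hzm
  simpa using hzm

theorem Z_comm_W {z : G} (hz : z ∈ Cfsg.omegaCenterOf J) {w : G} (hw : w ∈ W) :
    z * w = w * z := by
  obtain ⟨A, hA, hAW⟩ := c.exists_max_not_centralizes
  have hA' := c.repl hA hAW
  have hzA := c.Z_mem_max hz hA'
  have hwA : w ∈ (A ⊓ Subgroup.centralizer (W : Set G)) ⊔ W := (le_sup_right : W ≤ _) hw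
  exact c.max_comm hA' hzA hwA

theorem max_le_commW {A : Subgroup G} (hA : A ∈ maxElemAbIn 2 S) :
    A ≤ commW W (conjZ K J) := by
  intro a ha
  have haN : a ∈ Subgroup.normalizer (W : Set G) := c.S_le_NW (hA.1 ha)
  refine mem_commW.mpr ⟨haN, ?_⟩
  rintro e ⟨x, hx, z, hz, rfl⟩
  by_cases hAW : A ≤ Subgroup.centralizer (W : Set G)
  · have h := c.conj_Z_comm hA hAW hx hz ha
    have h1 : x * z * x⁻¹ * a * (x * z * x⁻¹)⁻¹ * a⁻¹ = 1 := by
      rw [← h]; group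
    rw [h1]; exact W.one_mem
  · have hA' := c.repl hA hAW
    have he := c.conj_Z_mem hA' (c.repl_le_centralizer A) hx hz
    have hnorm : W ≤ Subgroup.normalizer
        ((A ⊓ Subgroup.centralizer (W : Set G) : Subgroup G) : Set G) := by
      apply Cfsg.Agent.Lib.Helper53.le_normalizer_of_conj_mem
      intro w hw b hb
      have h1 : w * b * w⁻¹ = b := by
        rw [conj_eq_iff_comm]
        exact (Subgroup.mem_centralizer_iff.mp (Subgroup.mem_inf.mp hb).2 w hw).symm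
      rw [h1]; exact hb
    obtain ⟨b, hb, w, hw, hbw⟩ := (mem_sup_of_le_normalizer hnorm).mp he
    rw [hbw]
    have hba : b * a = a * b := c.max_comm hA (Subgroup.mem_inf.mp hb).1 ha
    have hw2 : w * (a * w⁻¹ * a⁻¹) ∈ W :=
      W.mul_mem hw (conj_mem_of_mem_normalizer haN (W.inv_mem hw))
    have hbc := Subgroup.mem_centralizer_iff.mp (Subgroup.mem_inf.mp hb).2 _ hw2
    have hab : a * b⁻¹ * a⁻¹ = b⁻¹ := by
      calc a * b⁻¹ * a⁻¹ = b⁻¹ * (b * a) * b⁻¹ * a⁻¹ := by group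
        _ = b⁻¹ * (a * b) * b⁻¹ * a⁻¹ := by rw [hba]
        _ = b⁻¹ := by group
    have h3 : b * w * a * (b * w)⁻¹ * a⁻¹ = w * (a * w⁻¹ * a⁻¹) := by
      calc b * w * a * (b * w)⁻¹ * a⁻¹
          = b * (w * (a * w⁻¹ * a⁻¹)) * (a * b⁻¹ * a⁻¹) := by group
        _ = b * (w * (a * w⁻¹ * a⁻¹)) * b⁻¹ := by rw [hab]
        _ = (w * (a * w⁻¹ * a⁻¹)) * b * b⁻¹ := by rw [hbc]
        _ = w * (a * w⁻¹ * a⁻¹) := by group
    rw [h3]; exact hw2

theorem conj_mem_commW {y : G} (hy : y ∈ K ⊔ J) {h : G} (hh : h ∈ commW W (conjZ K J)) :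
    y * h * y⁻¹ ∈ commW W (conjZ K J) := by
  obtain ⟨hN, he⟩ := mem_commW.mp hh
  have hyN := c.X_le_NW hy
  refine mem_commW.mpr
    ⟨Subgroup.mul_mem _ (Subgroup.mul_mem _ hyN hN) (Subgroup.inv_mem _ hyN), ?_⟩
  rintro e ⟨x, hx, z, hz, rfl⟩
  have he' : y⁻¹ * (x * z * x⁻¹) * y ∈ conjZ K J :=
    ⟨y⁻¹ * x, Subgroup.mul_mem _ (Subgroup.inv_mem _ hy) hx, z, hz, by group⟩
  have h1 := he _ he'
  have h2 : x * z * x⁻¹ * (y * h * y⁻¹) * (x * z * x⁻¹)⁻¹ * (y * h * y⁻¹)⁻¹ =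
      y * (y⁻¹ * (x * z * x⁻¹) * y * h * (y⁻¹ * (x * z * x⁻¹) * y)⁻¹ * h⁻¹) * y⁻¹ := by group
  rw [h2]
  exact conj_mem_of_mem_normalizer hyN h1

theorem J_le_commW : J ≤ commW W (conjZ K J) := by
  have h : sSup (maxElemAbIn 2 S) ≤ commW W (conjZ K J) :=
    sSup_le (fun A hA => c.max_le_commW hA)
  exact c.J_eq_sSup.le.trans h

theorem K_le_commW : K ≤ commW W (conjZ K J) := by
  have h : ⁅K, J⁆ ≤ commW W (conjZ K J) := by
    rw [Subgroup.commutator_le]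
    intro k hk j hj
    rw [commutatorElement_def]
    have hj' := c.J_le_commW hj
    exact Subgroup.mul_mem _ (c.conj_mem_commW ((le_sup_left : K ≤ K ⊔ J) hk) hj')
      (Subgroup.inv_mem _ hj')
  have h2 : ⁅K, J⁆ = K := c.hcomm
  exact h2.symm.le.trans h

/-- `[Ω₁(Z(J)), K] ≤ W`. -/
theorem comm_mem_W {z : G} (hz : z ∈ Cfsg.omegaCenterOf J) {k : G} (hk : k ∈ K) :
    z * k * z⁻¹ * k⁻¹ ∈ W :=
  (mem_commW.mp (c.K_le_commW hk)).2 z ⟨1, Subgroup.one_mem _, z, hz, by group⟩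

theorem card_Z_inf_W : Nat.card ↥(Cfsg.omegaCenterOf J ⊓ W) = 2 := by
  have hle : Cfsg.omegaCenterOf J ⊓ W ≤ W := inf_le_right
  have hdvd := Subgroup.card_dvd_of_le hle
  rw [c.hW4] at hdvd
  have hne4 : Nat.card ↥(Cfsg.omegaCenterOf J ⊓ W) ≠ 4 := by
    intro h4
    have heq := Subgroup.eq_of_le_of_card_ge hle (by rw [h4, c.hW4])
    apply c.J_not_centralizes
    intro j hj
    rw [Subgroup.mem_centralizer_iff]
    intro w hw
    have hwZ : w ∈ Cfsg.omegaCenterOf J := by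
      have h5 : w ∈ Cfsg.omegaCenterOf J ⊓ W := by rw [heq]; exact hw
      exact (Subgroup.mem_inf.mp h5).1
    obtain ⟨_, hwc, _⟩ := mem_omegaCenterOf_iff.mp hwZ
    exact (hwc j hj).symm
  have hne1 : Nat.card ↥(Cfsg.omegaCenterOf J ⊓ W) ≠ 1 := by
    intro h1
    obtain ⟨w₀, hw₀, hw₀1, hw₀c⟩ := c.exists_central
    have hw₀Z : w₀ ∈ Cfsg.omegaCenterOf J :=
      c.mem_Z_of (c.W_le_S hw₀) (by rw [pow_two]; exact c.hW2 w₀ hw₀)
        (fun j hj => hw₀c j (c.J_le_S hj))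
    have hbot := Subgroup.card_eq_one.mp h1
    have h5 : w₀ ∈ Cfsg.omegaCenterOf J ⊓ W := Subgroup.mem_inf.mpr ⟨hw₀Z, hw₀⟩
    rw [hbot, Subgroup.mem_bot] at h5
    exact hw₀1 h5
  have hpos : 0 < Nat.card ↥(Cfsg.omegaCenterOf J ⊓ W) := Nat.card_pos
  have hle4 := Nat.le_of_dvd (by norm_num) hdvd
  generalize Nat.card ↥(Cfsg.omegaCenterOf J ⊓ W) = n at *
  interval_cases n
  · exact absurd rfl hne1
  · rfl
  · exfalso; revert hdvd; decide
  · exact absurd rfl hne4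

theorem eq_of_mem_Z_inf_W {x y : G} (hx : x ∈ Cfsg.omegaCenterOf J ⊓ W)
    (hy : y ∈ Cfsg.omegaCenterOf J ⊓ W) (hx1 : x ≠ 1) (hy1 : y ≠ 1) : x = y := by
  have h2 := c.card_Z_inf_W
  obtain ⟨t, ht, huniq⟩ := (Nat.card_eq_two_iff' (1 : ↥(Cfsg.omegaCenterOf J ⊓ W))).mp h2
  have e1 := huniq ⟨x, hx⟩ (fun h => hx1 (congrArg Subtype.val h))
  have e2 := huniq ⟨y, hy⟩ (fun h => hy1 (congrArg Subtype.val h))
  exact congrArg Subtype.val (e1.trans e2.symm)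

end Cfg

end Cfsg.Agent.Lib.Helper71.JC
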