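import Mathlib
import Cfsg.Agent.Lib.Helper71.JC.JCZ

set_option autoImplicit false

/-!
# `Ω₁(Z(J)) = (Ω₁(Z(J)) ∩ Z(K J)) (Ω₁(Z(J)) ∩ W)` for a J-component (helper71)
-/

namespace Cfsg.Agent.Lib.Helper71.JC

open Cfsg.Agent.Lib.Helper11 (maxElemAbIn)
open scoped commutatorElement

universe u
variable {G : Type u} [Group G]

namespace Cfg

variable {K J R W S : Subgroup G} (c : Cfg K J R W S) [Finite G]
include c

/-- `w ↦ w w^d` is onto `W` for `d ∈ K ∖ R`. -/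
theorem solve {d : G} (hd : d ∈ K) (hdR : d ∉ R) {u : G} (hu : u ∈ W) :
    ∃ w ∈ W, w * (d * w * d⁻¹) = u := by
  have hdN := c.hKW hd
  let φ : W → W := fun w =>
    ⟨w.1 * (d * w.1 * d⁻¹), W.mul_mem w.2 (conj_mem_of_mem_normalizer hdN w.2)⟩
  have hinj : Function.Injective φ := by
    intro w w' h
    have h1 : w.1 * (d * w.1 * d⁻¹) = w'.1 * (d * w'.1 * d⁻¹) := congrArg Subtype.val h
    have ht : w.1 * w'.1 ∈ W := W.mul_mem w.2 w'.2
    have hfix : d * (w.1 * w'.1) * d⁻¹ = w.1 * w'.1 := by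
      have hw2 := c.hW2 w.1 w.2
      have hdw' : d * w'.1 * d⁻¹ ∈ W := conj_mem_of_mem_normalizer hdN w'.2
      have e1 : d * w.1 * d⁻¹ = w.1 * (w'.1 * (d * w'.1 * d⁻¹)) := by
        calc d * w.1 * d⁻¹ = (w.1 * w.1) * (d * w.1 * d⁻¹) := by rw [hw2, one_mul]
          _ = w.1 * (w.1 * (d * w.1 * d⁻¹)) := by group
          _ = w.1 * (w'.1 * (d * w'.1 * d⁻¹)) := by rw [h1]
      calc d * (w.1 * w'.1) * d⁻¹ = (d * w.1 * d⁻¹) * (d * w'.1 * d⁻¹) := by group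
        _ = w.1 * (w'.1 * (d * w'.1 * d⁻¹)) * (d * w'.1 * d⁻¹) := by rw [e1]
        _ = w.1 * w'.1 * ((d * w'.1 * d⁻¹) * (d * w'.1 * d⁻¹)) := by group
        _ = w.1 * w'.1 := by rw [c.hW2 _ hdw', mul_one]
    have h2 := c.hfp d hd hdR _ ht hfix
    apply Subtype.ext
    calc w.1 = w.1 * (w'.1 * w'.1) := by rw [c.hW2 w'.1 w'.2, mul_one]
      _ = (w.1 * w'.1) * w'.1 := by group
      _ = w'.1 := by rw [h2, one_mul]
  have hsurj := Finite.surjective_of_injective hinj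
  obtain ⟨w, hw⟩ := hsurj ⟨u, hu⟩
  exact ⟨w.1, w.2, congrArg Subtype.val hw⟩

/-- **Main theorem** for the configuration of a J-component. -/
theorem main : Nat.card ↥(Cfsg.omegaCenterOf J ⊓ W) = 2 ∧
    (Cfsg.omegaCenterOf J ⊓ ((K ⊔ J) ⊓ Subgroup.centralizer ((K ⊔ J : Subgroup G) : Set G))) ⊔
      (Cfsg.omegaCenterOf J ⊓ W) = Cfsg.omegaCenterOf J := by
  refine ⟨c.card_Z_inf_W, le_antisymm (sup_le inf_le_left inf_le_left) ?_⟩
  intro z hz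
  obtain ⟨hzJ, hzc, hz2⟩ := mem_omegaCenterOf_iff.mp hz
  obtain ⟨d, hd, hdR⟩ := c.exists_d
  have hdN : d ∈ Subgroup.normalizer (W : Set G) := c.hKW hd
  have hzz : z * z = 1 := by rw [← pow_two]; exact hz2
  have hzinv : z⁻¹ = z := inv_eq_self_of_sq hzz
  obtain ⟨u, hu_def⟩ : ∃ u, u = z * d * z⁻¹ * d⁻¹ := ⟨_, rfl⟩
  have hu : u ∈ W := by rw [hu_def]; exact c.comm_mem_W hz hd
  obtain ⟨w, hw, hwu⟩ := c.solve hd hdR hu
  have hdw : d * w * d⁻¹ ∈ W := conj_mem_of_mem_normalizer hdN hw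
  have hdz : d * z * d⁻¹ = z * u := by
    calc d * z * d⁻¹ = (z * z) * (d * z * d⁻¹) := by rw [hzz, one_mul]
      _ = z * (z * d * z * d⁻¹) := by group
      _ = z * u := by rw [hu_def, hzinv]
  have hc1 : d * (z * w) * d⁻¹ = z * w := by
    calc d * (z * w) * d⁻¹ = (d * z * d⁻¹) * (d * w * d⁻¹) := by group
      _ = z * u * (d * w * d⁻¹) := by rw [hdz]
      _ = z * (w * (d * w * d⁻¹)) * (d * w * d⁻¹) := by rw [hwu]
      _ = z * w * ((d * w * d⁻¹) * (d * w * d⁻¹)) := by group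
      _ = z * w := by rw [c.hW2 _ hdw, mul_one]
  have hcd : (z * w) * d = d * (z * w) := conj_eq_iff_comm.mp hc1
  -- commutes with `R`
  have ht : ∀ r ∈ R, z * r * z⁻¹ * r⁻¹ ∈ Cfsg.omegaCenterOf J ⊓ W := by
    intro r hr
    refine Subgroup.mem_inf.mpr ⟨?_, c.comm_mem_W hz (c.hRK hr)⟩
    have h1 : r * z⁻¹ * r⁻¹ ∈ Cfsg.omegaCenterOf J :=
      c.conj_mem_Z (c.R_le_S hr) (Subgroup.inv_mem _ hz)
    have h2 : z * r * z⁻¹ * r⁻¹ = z * (r * z⁻¹ * r⁻¹) := by group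
    rw [h2]; exact Subgroup.mul_mem _ hz h1
  have hteq : ∀ r ∈ R, (z * w) * r * (z * w)⁻¹ * r⁻¹ = z * r * z⁻¹ * r⁻¹ := by
    intro r hr
    have hwr : w * r = r * w := c.hWZ w hw r hr
    calc (z * w) * r * (z * w)⁻¹ * r⁻¹ = z * (w * r) * w⁻¹ * z⁻¹ * r⁻¹ := by group
      _ = z * (r * w) * w⁻¹ * z⁻¹ * r⁻¹ := by rw [hwr]
      _ = z * r * z⁻¹ * r⁻¹ := by group
  have hcR : ∀ r ∈ R, (z * w) * r = r * (z * w) := by
    intro r hr
    have hr' : d * r * d⁻¹ ∈ R := conj_mem_of_mem_normalizer (c.hKR hd) hr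
    by_contra hne
    have ht1 : z * r * z⁻¹ * r⁻¹ ≠ 1 := by
      intro h1
      apply hne
      have h2 := hteq r hr
      rw [h1] at h2
      calc z * w * r = ((z * w) * r * (z * w)⁻¹ * r⁻¹) * (r * (z * w)) := by group
        _ = r * (z * w) := by rw [h2, one_mul]
    have hconj : d * (z * r * z⁻¹ * r⁻¹) * d⁻¹ =
        z * (d * r * d⁻¹) * z⁻¹ * (d * r * d⁻¹)⁻¹ := by
      rw [← hteq r hr, ← hteq _ hr']
      calc d * ((z * w) * r * (z * w)⁻¹ * r⁻¹) * d⁻¹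
          = (d * (z * w) * d⁻¹) * (d * r * d⁻¹) * (d * (z * w) * d⁻¹)⁻¹ * (d * r * d⁻¹)⁻¹ := by
            group
        _ = (z * w) * (d * r * d⁻¹) * (z * w)⁻¹ * (d * r * d⁻¹)⁻¹ := by rw [hc1]
    have ht2 : d * (z * r * z⁻¹ * r⁻¹) * d⁻¹ ≠ 1 := by
      intro h1
      apply ht1
      have h3 : z * r * z⁻¹ * r⁻¹ = d⁻¹ * (d * (z * r * z⁻¹ * r⁻¹) * d⁻¹) * d := by group
      rw [h3, h1]; group
    have hmem : d * (z * r * z⁻¹ * r⁻¹) * d⁻¹ ∈ Cfsg.omegaCenterOf J ⊓ W := by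
      rw [hconj]; exact ht _ hr'
    have heq := c.eq_of_mem_Z_inf_W hmem (ht r hr) ht2 ht1
    exact ht1 (c.hfp d hd hdR _ (Subgroup.mem_inf.mp (ht r hr)).2 heq)
  -- commutes with `K`
  have hcK : ∀ k ∈ K, (z * w) * k = k * (z * w) := by
    intro k hk
    obtain ⟨i, r, hr, rfl⟩ := (q3 c.hRK c.hKR c.hidx hd hdR).2 k hk
    have hcdi : (z * w) * d ^ i = d ^ i * (z * w) :=
      (Commute.pow_right (show Commute (z * w) d from hcd) i)
    calc (z * w) * (d ^ i * r) = ((z * w) * d ^ i) * r := by group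
      _ = (d ^ i * (z * w)) * r := by rw [hcdi]
      _ = d ^ i * ((z * w) * r) := by group
      _ = d ^ i * (r * (z * w)) := by rw [hcR r hr]
      _ = d ^ i * r * (z * w) := by group
  -- commutes with `J`
  have hcJ : ∀ j ∈ J, j * (z * w) = (z * w) * j := by
    intro j hj
    have hjw : j * w⁻¹ * j⁻¹ ∈ W := conj_mem_of_mem_normalizer (c.hJW hj) (W.inv_mem hw)
    have hv : (z * w) * j * (z * w)⁻¹ * j⁻¹ = w * (j * w⁻¹ * j⁻¹) := by
      have hzj : j * z⁻¹ * j⁻¹ = z⁻¹ := by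
        have h1 := hzc j hj
        calc j * z⁻¹ * j⁻¹ = z⁻¹ * (z * j) * z⁻¹ * j⁻¹ := by group
          _ = z⁻¹ * (j * z) * z⁻¹ * j⁻¹ := by rw [h1]
          _ = z⁻¹ := by group
      have hzw2 := c.Z_comm_W hz (W.mul_mem hw hjw)
      calc (z * w) * j * (z * w)⁻¹ * j⁻¹
          = z * (w * (j * w⁻¹ * j⁻¹)) * (j * z⁻¹ * j⁻¹) := by group
        _ = z * (w * (j * w⁻¹ * j⁻¹)) * z⁻¹ := by rw [hzj]
        _ = (w * (j * w⁻¹ * j⁻¹)) * z * z⁻¹ := by rw [hzw2]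
        _ = w * (j * w⁻¹ * j⁻¹) := by group
    have hvW : (z * w) * j * (z * w)⁻¹ * j⁻¹ ∈ W := by
      rw [hv]; exact W.mul_mem hw hjw
    have hjd : j⁻¹ * d * j ∈ K := conj_inv_mem_of_mem_normalizer (c.hJK hj) hd
    have hck := hcK _ hjd
    have hfix : d * ((z * w) * j * (z * w)⁻¹ * j⁻¹) * d⁻¹ =
        (z * w) * j * (z * w)⁻¹ * j⁻¹ := by
      calc d * ((z * w) * j * (z * w)⁻¹ * j⁻¹) * d⁻¹
          = (d * (z * w)) * j * ((j⁻¹ * d * j) * (z * w))⁻¹ * j⁻¹ := by group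
        _ = ((z * w) * d) * j * ((z * w) * (j⁻¹ * d * j))⁻¹ * j⁻¹ := by rw [← hcd, ← hck]
        _ = (z * w) * j * (z * w)⁻¹ * j⁻¹ := by group
    have h1 := c.hfp d hd hdR _ hvW hfix
    calc j * (z * w) = ((z * w) * j * (z * w)⁻¹ * j⁻¹)⁻¹ * ((z * w) * j) := by group
      _ = (z * w) * j := by rw [h1]; group
  have hcS : z * w ∈ S := S.mul_mem (c.J_le_S hzJ) (c.W_le_S hw)
  have hc2 : (z * w) ^ 2 = 1 := by
    have hzw := c.Z_comm_W hz hw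
    rw [pow_two]
    calc z * w * (z * w) = z * (w * z) * w := by group
      _ = z * (z * w) * w := by rw [hzw]
      _ = (z * z) * (w * w) := by group
      _ = 1 := by rw [hzz, c.hW2 w hw, one_mul]
  have hcZ : z * w ∈ Cfsg.omegaCenterOf J := c.mem_Z_of hcS hc2 hcJ
  have hcX : z * w ∈ (K ⊔ J) ⊓ Subgroup.centralizer ((K ⊔ J : Subgroup G) : Set G) := by
    refine Subgroup.mem_inf.mpr ⟨c.S_le_X hcS, ?_⟩
    rw [Subgroup.mem_centralizer_iff]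
    intro x hx
    obtain ⟨k, hk, j, hj, rfl⟩ := c.mem_X.mp hx
    calc k * j * (z * w) = k * (j * (z * w)) := by group
      _ = k * ((z * w) * j) := by rw [hcJ j hj]
      _ = (k * (z * w)) * j := by group
      _ = ((z * w) * k) * j := by rw [hcK k hk]
      _ = z * w * (k * j) := by group
  have hwZ : w ∈ Cfsg.omegaCenterOf J := by
    have h1 : w = z⁻¹ * (z * w) := by group
    rw [h1]; exact Subgroup.mul_mem _ (Subgroup.inv_mem _ hz) hcZ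
  have hzeq : z = (z * w) * w := by
    calc z = z * (w * w) := by rw [c.hW2 w hw, mul_one]
      _ = (z * w) * w := by group
  rw [hzeq]
  exact Subgroup.mul_mem_sup (Subgroup.mem_inf.mpr ⟨hcZ, hcX⟩) (Subgroup.mem_inf.mpr ⟨hwZ, hw⟩)

end Cfg

end Cfsg.Agent.Lib.Helper71.JC
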