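import Mathlib
import Cfsg.Agent.Lib.Helper71.JC.JCMain

set_option autoImplicit false

/-!
# A J(T)-component gives the abstract configuration (helper71)
-/

namespace Cfsg.Agent.Lib.Helper71.JC

open Cfsg.Agent.Lib.Helper11 (maxElemAbIn)
open scoped commutatorElement

universe u
variable {G : Type u} [Group G]

theorem conj_mem_omegaCenterOf {R : Subgroup G} {x : G}
    (hx : x ∈ Subgroup.normalizer (R : Set G)) {v : G} (hv : v ∈ Cfsg.omegaCenterOf R) :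
    x * v * x⁻¹ ∈ Cfsg.omegaCenterOf R := by
  obtain ⟨hvR, hvc, hv2⟩ := mem_omegaCenterOf_iff.mp hv
  refine mem_omegaCenterOf_iff.mpr ⟨conj_mem_of_mem_normalizer hx hvR, fun r hr => ?_, ?_⟩
  · have hr' : x⁻¹ * r * x ∈ R := conj_inv_mem_of_mem_normalizer hx hr
    have h := hvc _ hr'
    calc r * (x * v * x⁻¹) = x * ((x⁻¹ * r * x) * v) * x⁻¹ := by group
      _ = x * (v * (x⁻¹ * r * x)) * x⁻¹ := by rw [h]
      _ = x * v * x⁻¹ * r := by group
  · have h : (x * v * x⁻¹) ^ 2 = x * v ^ 2 * x⁻¹ := by rw [pow_two, pow_two]; group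
    rw [h, hv2]; group

theorem comm_conj_mem {V K : Subgroup G} {x : G} (hV : ∀ v ∈ V, x * v * x⁻¹ ∈ V)
    (hK : ∀ k ∈ K, x * k * x⁻¹ ∈ K) {w : G} (hw : w ∈ ⁅V, K⁆) : x * w * x⁻¹ ∈ ⁅V, K⁆ := by
  rw [Subgroup.commutator_def] at hw
  induction hw using Subgroup.closure_induction with
  | mem y hy =>
    obtain ⟨v, hv, k, hk, rfl⟩ := hy
    have h : x * ⁅v, k⁆ * x⁻¹ = ⁅x * v * x⁻¹, x * k * x⁻¹⁆ := by
      simp only [commutatorElement_def]; group
    rw [h]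
    exact Subgroup.commutator_mem_commutator (hV v hv) (hK k hk)
  | one => simp
  | mul a b _ _ ha hb =>
    have h : x * (a * b) * x⁻¹ = (x * a * x⁻¹) * (x * b * x⁻¹) := by group
    rw [h]; exact Subgroup.mul_mem _ ha hb
  | inv a _ ha =>
    have h : x * a⁻¹ * x⁻¹ = (x * a * x⁻¹)⁻¹ := by group
    rw [h]; exact Subgroup.inv_mem _ ha

/-- An element of `K ∖ R` acts fixed-point-freely on the four-group `[V, K]`. -/
theorem fp_free {R K V : Subgroup G} (hRK : R ≤ K)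
    (hKR : K ≤ Subgroup.normalizer (R : Set G)) (hidx : R.relIndex K = 3)
    (hVc : ∀ v ∈ V, ∀ r ∈ R, r * v = v * r)
    (hVN : ∀ k ∈ K, ∀ v ∈ V, k * v * k⁻¹ ∈ V)
    (hW4 : Nat.card ↥(⁅V, K⁆) = 4) (hW2 : ∀ w ∈ ⁅V, K⁆, w * w = 1) (hWV : ⁅V, K⁆ ≤ V)
    {d : G} (hd : d ∈ K) (hdR : d ∉ R) {w₁ : G} (hw₁ : w₁ ∈ ⁅V, K⁆)
    (hfix : d * w₁ * d⁻¹ = w₁) : w₁ = 1 := by
  by_contra hw₁1
  obtain ⟨hd3, hdec⟩ := q3 hRK hKR hidx hd hdR
  have hdN : ∀ w ∈ ⁅V, K⁆, d * w * d⁻¹ ∈ ⁅V, K⁆ := fun w hw =>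
    comm_conj_mem (hVN d hd) (fun k hk => K.mul_mem (K.mul_mem hd hk) (K.inv_mem hd)) hw
  have hd3c : ∀ v ∈ V, d * (d * (d * v * d⁻¹) * d⁻¹) * d⁻¹ = v := by
    intro v hv
    have h1 : d ^ 3 * v * (d ^ 3)⁻¹ = v := conj_eq_iff_comm.mpr (hVc v hv _ hd3).symm
    have h0 : d ^ 3 = d * d * d := by rw [pow_succ, pow_two]
    calc d * (d * (d * v * d⁻¹) * d⁻¹) * d⁻¹ = (d * d * d) * v * (d * d * d)⁻¹ := by group
      _ = d ^ 3 * v * (d ^ 3)⁻¹ := by rw [h0]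
      _ = v := h1
  -- Step 1: `d` centralizes `[V, K]`
  have hstep1 : ∀ w ∈ ⁅V, K⁆, d * w * d⁻¹ = w := by
    obtain ⟨a, ha, ha1, haw⟩ : ∃ a ∈ ⁅V, K⁆, a ≠ 1 ∧ a ≠ w₁ := by
      by_contra hcon
      push_neg at hcon
      have hsub : ((⁅V, K⁆ : Subgroup G) : Set G) ⊆ {1, w₁} := by
        intro w hw
        by_cases h1 : w = 1
        · left; exact h1
        · right; exact hcon w hw h1
      have hfin : ({1, w₁} : Set G).Finite := Set.toFinite _
      have h2 := Set.ncard_le_ncard hsub hfin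
      have h3 : ({1, w₁} : Set G).ncard ≤ 2 := by
        have := Set.ncard_insert_le (1 : G) ({w₁} : Set G)
        rw [Set.ncard_singleton] at this
        exact this
      have h4 : Nat.card ↥(⁅V, K⁆) = ((⁅V, K⁆ : Subgroup G) : Set G).ncard := rfl
      omega
    have haw₁ : a * w₁ ∈ ⁅V, K⁆ := Subgroup.mul_mem _ ha hw₁
    have h11 : a * w₁ ≠ 1 := by
      intro h
      apply haw
      have h5 : a = w₁⁻¹ := eq_inv_of_mul_eq_one_left h
      rw [h5, inv_eq_self_of_sq (hW2 w₁ hw₁)]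
    have h12 : a * w₁ ≠ w₁ := by
      intro h
      apply ha1
      have : a * w₁ = 1 * w₁ := by rw [h, one_mul]
      exact mul_right_cancel this
    have h13 : a * w₁ ≠ a := by
      intro h
      apply hw₁1
      have : a * w₁ = a * 1 := by rw [h, mul_one]
      exact mul_left_cancel this
    have henum := four_enum hW4 hw₁ ha haw₁ hw₁1 ha1 h11 (Ne.symm haw) (Ne.symm h12)
      (Ne.symm h13)
    have hda : d * a * d⁻¹ = a := by
      rcases henum _ (hdN a ha) with h | h | h | h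
      · exfalso; apply ha1
        have : a = d⁻¹ * (d * a * d⁻¹) * d := by group
        rw [this, h]; group
      · exfalso; apply haw
        have : a = d⁻¹ * (d * a * d⁻¹) * d := by group
        rw [this, h]
        have : w₁ = d⁻¹ * (d * w₁ * d⁻¹) * d := by group
        nth_rewrite 2 [this]
        rw [hfix]
      · exact h
      · exfalso
        have h6 := hd3c a (hWV ha)
        have e : d * (a * w₁) * d⁻¹ = a := by
          calc d * (a * w₁) * d⁻¹ = (d * a * d⁻¹) * (d * w₁ * d⁻¹) := by group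
            _ = (a * w₁) * w₁ := by rw [h, hfix]
            _ = a * (w₁ * w₁) := by group
            _ = a := by rw [hW2 w₁ hw₁, mul_one]
        rw [h, e, h] at h6
        exact h13 h6
    intro w hw
    rcases henum w hw with h | h | h | h
    · rw [h]; group
    · rw [h]; exact hfix
    · rw [h]; exact hda
    · rw [h]
      have h7 : d * (a * w₁) * d⁻¹ = (d * a * d⁻¹) * (d * w₁ * d⁻¹) := by group
      rw [h7, hda, hfix]
  -- Step 2: `d` centralizes `V`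
  have hstep2 : ∀ v ∈ V, d * v * d⁻¹ = v := by
    intro v hv
    have hc : v * d * v⁻¹ * d⁻¹ ∈ ⁅V, K⁆ := by
      have := Subgroup.commutator_mem_commutator hv hd
      rwa [commutatorElement_def] at this
    obtain ⟨c, hc_def⟩ : ∃ c, c = v * d * v⁻¹ * d⁻¹ := ⟨_, rfl⟩
    rw [← hc_def] at hc
    have hcfix := hstep1 c hc
    have hcinvfix : d * c⁻¹ * d⁻¹ = c⁻¹ := by
      have : d * c⁻¹ * d⁻¹ = (d * c * d⁻¹)⁻¹ := by group
      rw [this, hcfix]
    have hdv : d * v * d⁻¹ = c⁻¹ * v := by rw [hc_def]; group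
    have h3 := hd3c v hv
    rw [hdv] at h3
    have e1 : d * (c⁻¹ * v) * d⁻¹ = (d * c⁻¹ * d⁻¹) * (d * v * d⁻¹) := by group
    rw [e1, hcinvfix, hdv] at h3
    have e2 : d * (c⁻¹ * (c⁻¹ * v)) * d⁻¹ =
        (d * c⁻¹ * d⁻¹) * ((d * c⁻¹ * d⁻¹) * (d * v * d⁻¹)) := by group
    rw [e2, hcinvfix, hdv] at h3
    -- h3 : c⁻¹ * (c⁻¹ * (c⁻¹ * v)) = v
    have hcc := hW2 c hc
    have hcinv : c⁻¹ = c := inv_eq_self_of_sq hcc
    rw [hcinv] at h3
    have h4 : c = 1 := by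
      have : c * (c * (c * v)) = (c * c) * c * v := by group
      rw [this, hcc, one_mul] at h3
      have : c * v = 1 * v := by rw [h3, one_mul]
      exact mul_right_cancel this
    rw [hdv, h4]; group
  -- Step 3: `[V, K] = 1`
  have hbot : ⁅V, K⁆ = ⊥ := by
    rw [eq_bot_iff, Subgroup.commutator_le]
    intro v hv k hk
    rw [Subgroup.mem_bot, commutatorElement_def]
    obtain ⟨i, r, hr, rfl⟩ := hdec k hk
    have hvd : Commute v d := (conj_eq_iff_comm.mp (hstep2 v hv))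
    have hvdi : v * d ^ i = d ^ i * v := hvd.pow_right i
    have hvr : r * v = v * r := hVc v hv r hr
    calc v * (d ^ i * r) * v⁻¹ * (d ^ i * r)⁻¹ = (v * d ^ i) * r * v⁻¹ * r⁻¹ * (d ^ i)⁻¹ := by group
      _ = d ^ i * (v * r) * v⁻¹ * r⁻¹ * (d ^ i)⁻¹ := by rw [hvdi]; group
      _ = d ^ i * (r * v) * v⁻¹ * r⁻¹ * (d ^ i)⁻¹ := by rw [hvr]
      _ = 1 := by group
  rw [hbot, Subgroup.card_bot] at hW4
  omega

/-- `R J` is a Sylow 2-subgroup of `K J`. -/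
theorem odd_relIndex [Finite G] {K J R : Subgroup G}
    (hJK : J ≤ Subgroup.normalizer (K : Set G)) (hRK : R ≤ K)
    (hKR : K ≤ Subgroup.normalizer (R : Set G)) (hJR : J ≤ Subgroup.normalizer (R : Set G))
    (hR2 : IsPGroup 2 R) (hJ2 : IsPGroup 2 J) (hidx : R.relIndex K = 3) :
    Odd ((R ⊔ J).relIndex (K ⊔ J)) := by
  have : Fact (Nat.Prime 2) := ⟨Nat.prime_two⟩
  have hS2 : IsPGroup 2 (R ⊔ J : Subgroup G) := IsPGroup.to_sup_of_normal_left' hR2 hJ2 hJR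
  have hP0 : IsPGroup 2 ((R ⊔ J).subgroupOf (K ⊔ J)) :=
    hS2.comap_of_injective _ (Subgroup.subtype_injective _)
  obtain ⟨Q, hQ⟩ := hP0.exists_le_sylow
  have hQle : (Q : Subgroup ↥(K ⊔ J)) ≤ (R ⊔ J).subgroupOf (K ⊔ J) := by
    intro q hq
    rw [Subgroup.mem_subgroupOf]
    obtain ⟨k, hk, j, hj, hkj⟩ := (mem_sup_of_le_normalizer hJK).mp q.2
    have hjX : j ∈ K ⊔ J := (le_sup_right : J ≤ K ⊔ J) hj
    have hjQ : (⟨j, hjX⟩ : ↥(K ⊔ J)) ∈ (Q : Subgroup ↥(K ⊔ J)) :=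
      hQ (Subgroup.mem_subgroupOf.mpr ((le_sup_right : J ≤ R ⊔ J) hj))
    have hkQ : q * (⟨j, hjX⟩ : ↥(K ⊔ J))⁻¹ ∈ (Q : Subgroup ↥(K ⊔ J)) :=
      Subgroup.mul_mem _ hq (Subgroup.inv_mem _ hjQ)
    obtain ⟨n, hn⟩ := Q.isPGroup' ⟨_, hkQ⟩
    have hkval : ((q * (⟨j, hjX⟩ : ↥(K ⊔ J))⁻¹ : ↥(K ⊔ J)) : G) = k := by
      simp [hkj]
    have hk2 : k ^ (2 ^ n) = 1 := by
      have h1 := congrArg (fun x : ↥(Q : Subgroup ↥(K ⊔ J)) => ((x : ↥(K ⊔ J)) : G)) hn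
      simpa [hkval] using h1
    have hkR : k ∈ R := by
      by_cases hkR : k ∈ R
      · exact hkR
      · have h3 := (q3 hRK hKR hidx hk hkR).1
        exact mem_of_pow_mem_coprime (a := 2 ^ n) (b := 3)
          (by apply Nat.Coprime.pow_left; norm_num) (by rw [hk2]; exact R.one_mem) h3
    rw [hkj]
    exact Subgroup.mul_mem _ ((le_sup_left : R ≤ R ⊔ J) hkR) ((le_sup_right : J ≤ R ⊔ J) hj)
  have heq : (R ⊔ J).subgroupOf (K ⊔ J) = (Q : Subgroup ↥(K ⊔ J)) := le_antisymm hQ hQle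
  have hnd := Q.not_dvd_index
  rw [Subgroup.relIndex, heq]
  exact Nat.odd_iff.mpr (by omega)

/-- A `J(T)`-component gives the abstract configuration. -/
theorem cfg_of_isJComponent [Finite G] {T K : Subgroup G} (hT : IsPGroup 2 T)
    (hK : Cfsg.IsJComponent T K) :
    Cfg K (Cfsg.thompsonSubgroupOf 2 T) (Cfsg.pCoreOf 2 K) (Cfsg.wOf K)
      (Cfsg.pCoreOf 2 K ⊔ Cfsg.thompsonSubgroupOf 2 T) := by
  have : Fact (Nat.Prime 2) := ⟨Nat.prime_two⟩
  obtain ⟨hgen, hcomm, hidx, hsyl, hW4, hW2⟩ := hK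
  have hJK := le_normalizer_of_comm_eq hcomm
  have hRK := Cfsg.Agent.Lib.Helper47.pCoreOf_le 2 K
  have hKR := Cfsg.Agent.Lib.Helper47.le_normalizer_pCoreOf 2 K
  have hJR := hJK.trans (Cfsg.Agent.Lib.Helper47.normalizer_le_normalizer_pCoreOf 2 K)
  have hR2 := Cfsg.Agent.Lib.Helper47.pCoreOf_isPGroup 2 K
  have hJ2 : IsPGroup 2 (Cfsg.thompsonSubgroupOf 2 T) :=
    hT.to_le (Cfsg.Agent.Lib.Helper11.thompsonSubgroupOf_le 2 T)
  have hV0R : Cfsg.omegaCenterOf (Cfsg.pCoreOf 2 K) ≤ Cfsg.pCoreOf 2 K :=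
    fun v hv => (mem_omegaCenterOf_iff.mp hv).1
  have hV0c : ∀ v ∈ Cfsg.omegaCenterOf (Cfsg.pCoreOf 2 K), ∀ r ∈ Cfsg.pCoreOf 2 K,
      r * v = v * r := fun v hv => (mem_omegaCenterOf_iff.mp hv).2.1
  have hV0N : ∀ k ∈ K, ∀ v ∈ Cfsg.omegaCenterOf (Cfsg.pCoreOf 2 K),
      k * v * k⁻¹ ∈ Cfsg.omegaCenterOf (Cfsg.pCoreOf 2 K) :=
    fun k hk v hv => conj_mem_omegaCenterOf (hKR hk) hv
  have hWV : Cfsg.wOf K ≤ Cfsg.omegaCenterOf (Cfsg.pCoreOf 2 K) := by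
    unfold Cfsg.wOf
    rw [Subgroup.commutator_le]
    intro v hv k hk
    rw [commutatorElement_def]
    have h : v * k * v⁻¹ * k⁻¹ = v * (k * v⁻¹ * k⁻¹) := by group
    rw [h]
    exact Subgroup.mul_mem _ hv (hV0N k hk _ (Subgroup.inv_mem _ hv))
  have hWR := hWV.trans hV0R
  have hWZ : ∀ w ∈ Cfsg.wOf K, ∀ r ∈ Cfsg.pCoreOf 2 K, w * r = r * w :=
    fun w hw r hr => (hV0c w (hWV hw) r hr).symm
  have hNW : ∀ x, x ∈ Subgroup.normalizer (K : Set G) →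
      x ∈ Subgroup.normalizer ((Cfsg.wOf K : Subgroup G) : Set G) := by
    intro x hx
    have key : ∀ y, y ∈ Subgroup.normalizer (K : Set G) → ∀ w ∈ Cfsg.wOf K,
        y * w * y⁻¹ ∈ Cfsg.wOf K := by
      intro y hy w hw
      have hyR := Cfsg.Agent.Lib.Helper47.normalizer_le_normalizer_pCoreOf 2 K hy
      exact comm_conj_mem (fun v hv => conj_mem_omegaCenterOf hyR hv)
        (fun k hk => conj_mem_of_mem_normalizer hy hk) hw
    rw [Subgroup.mem_normalizer_iff]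
    intro w
    constructor
    · exact key x hx w
    · intro h
      have h1 := key x⁻¹ (Subgroup.inv_mem _ hx) _ h
      have e : x⁻¹ * (x * w * x⁻¹) * x⁻¹⁻¹ = w := by group
      rwa [e] at h1
  have hKW : K ≤ Subgroup.normalizer ((Cfsg.wOf K : Subgroup G) : Set G) :=
    fun k hk => hNW k (Subgroup.le_normalizer hk)
  have hJW : Cfsg.thompsonSubgroupOf 2 T ≤
      Subgroup.normalizer ((Cfsg.wOf K : Subgroup G) : Set G) := fun j hj => hNW j (hJK hj)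
  refine { hJK := hJK, hRK := hRK, hKR := hKR, hJR := hJR, hR2 := hR2, hJ2 := hJ2,
           hidx := hidx, hcomm := hcomm, hWR := hWR, hWZ := hWZ, hKW := hKW, hJW := hJW,
           hW4 := hW4, hW2 := hW2, hfp := ?_, hS := rfl, hJS := ?_ }
  · intro d hd hdR w hw hfix
    exact fp_free hRK hKR hidx hV0c hV0N hW4 hW2 hWV hd hdR hw hfix
  · apply hsyl
    · exact ⟨sup_le_sup_right hRK _, IsPGroup.to_sup_of_normal_left' hR2 hJ2 hJR,
        odd_relIndex hJK hRK hKR hJR hR2 hJ2 hidx⟩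
    · exact le_sup_right

end Cfsg.Agent.Lib.Helper71.JC
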